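import Mathlib

set_option autoImplicit false

namespace Cfsg.Agent.Lib.Lead

/-- S3793-P7 (eigenvector in a Hom-space), statement as posted by helper3. -/
theorem fg_hom_eig {K : Type*} [Field K] [IsAlgClosed K] {Q : Type*} [Group Q]
    {W : Type*} [AddCommGroup W] [Module K W] [FiniteDimensional K W]
    {Y : Type*} [AddCommGroup Y] [Module K Y] [FiniteDimensional K Y]
    (ρ : Q →* Module.End K W) (ρ₁ : Q →* Module.End K Y) (a : MulAut Q)
    (Xs : Module.End K W) (P : ℕ) (hP : 0 < P) (hXsP : Xs ^ P = 1)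
    (hXs : ∀ h, Xs * ρ h = ρ (a h) * Xs)
    (g g' : Module.End K Y) (hgg' : g * g' = 1) (hg'g : g' * g = 1) (hgP : g ^ P = 1)
    (hint : ∀ h, g * ρ₁ h = ρ₁ (a h) * g)
    (f₀ : Y →ₗ[K] W) (hf₀ : f₀ ≠ 0) (hf₀c : ∀ h, ρ h ∘ₗ f₀ = f₀ ∘ₗ ρ₁ h) :
    ∃ (f : Y →ₗ[K] W) (κ : K), f ≠ 0 ∧ (∀ h, ρ h ∘ₗ f = f ∘ₗ ρ₁ h) ∧ κ ^ P = 1 ∧
      Xs ∘ₗ f = κ • (f ∘ₗ g) := by
  classical
  -- pointwise forms of the hypotheses
  have hg'g_ap : ∀ y, g' (g y) = y := fun y => by
    have := congrArg (fun t : Module.End K Y => t y) hg'g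
    simpa using this
  have hgg'_ap : ∀ y, g (g' y) = y := fun y => by
    have := congrArg (fun t : Module.End K Y => t y) hgg'
    simpa using this
  have hXs' : ∀ h w, ρ h (Xs w) = Xs (ρ (a⁻¹ h) w) := by
    intro h w
    have := congrArg (fun t : Module.End K W => t w) (hXs (a⁻¹ h))
    simp only [Module.End.mul_apply, MulAut.apply_inv_self] at this
    exact this.symm
  have hg'' : ∀ h y, ρ₁ (a⁻¹ h) (g' y) = g' (ρ₁ h y) := by
    intro h y
    have := congrArg (fun t : Module.End K Y => t (g' y)) (hint (a⁻¹ h))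
    simp only [Module.End.mul_apply, MulAut.apply_inv_self, hgg'_ap] at this
    have h2 := congrArg g' this
    rw [hg'g_ap] at h2
    exact h2
  have hg'P : g' ^ P = 1 := by
    have hc : Commute g' g := by rw [Commute, SemiconjBy, hg'g, hgg']
    have := hc.mul_pow P
    rw [hg'g, one_pow, hgP, mul_one] at this
    exact this.symm
  -- the submodule of intertwiners and the operator T
  let H : Submodule K (Y →ₗ[K] W) :=
    { carrier := {f | ∀ h, ρ h ∘ₗ f = f ∘ₗ ρ₁ h}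
      add_mem' := by
        intro f1 f2 h1 h2 h
        simp only [Set.mem_setOf_eq] at h1 h2
        rw [LinearMap.comp_add, LinearMap.add_comp, h1 h, h2 h]
      zero_mem' := by intro h; simp
      smul_mem' := by
        intro c f hf h
        simp only [Set.mem_setOf_eq] at hf
        rw [LinearMap.comp_smul, LinearMap.smul_comp, hf h] }
  let T : (Y →ₗ[K] W) →ₗ[K] (Y →ₗ[K] W) :=
    { toFun := fun f => Xs ∘ₗ f ∘ₗ g'
      map_add' := by intro f1 f2; ext y; simp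
      map_smul' := by intro c f; ext y; simp }
  have hT : ∀ f ∈ H, T f ∈ H := by
    intro f hf h
    have hf' : ∀ h y, ρ h (f y) = f (ρ₁ h y) := fun h y => by
      have := congrArg (fun t : Y →ₗ[K] W => t y) (hf h)
      simpa using this
    ext y
    show ρ h (Xs (f (g' y))) = Xs (f (g' (ρ₁ h y)))
    rw [hXs', hf', hg'']
  haveI : Nontrivial H := ⟨⟨⟨f₀, hf₀c⟩, 0, fun h => hf₀ (congrArg Subtype.val h)⟩⟩
  obtain ⟨κ, hκ⟩ := Module.End.exists_eigenvalue (T.restrict hT)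
  obtain ⟨v, hv⟩ := hκ.exists_hasEigenvector
  have hv0 : (v : Y →ₗ[K] W) ≠ 0 := fun h => hv.2 (Subtype.ext h)
  have hTv : Xs ∘ₗ (v : Y →ₗ[K] W) ∘ₗ g' = κ • (v : Y →ₗ[K] W) := by
    have h0 : T (v : Y →ₗ[K] W) = κ • (v : Y →ₗ[K] W) := by
      have := congrArg Subtype.val hv.apply_eq_smul
      simpa using this
    exact h0
  have hpow : ∀ k : ℕ, (Xs ^ k) ∘ₗ (v : Y →ₗ[K] W) ∘ₗ (g' ^ k) = κ ^ k • (v : Y →ₗ[K] W) := by
    intro k
    induction k with
    | zero => ext y; simp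
    | succ k ih =>
      have e1 : (Xs ^ (k + 1)) ∘ₗ (v : Y →ₗ[K] W) ∘ₗ (g' ^ (k + 1))
          = Xs ∘ₗ ((Xs ^ k) ∘ₗ (v : Y →ₗ[K] W) ∘ₗ (g' ^ k)) ∘ₗ g' := by
        rw [pow_succ' Xs k, pow_succ g' k]
        ext y
        simp only [LinearMap.comp_apply, Module.End.mul_apply]
      rw [e1, ih, LinearMap.smul_comp, LinearMap.comp_smul, hTv, smul_smul, pow_succ]
  refine ⟨v, κ, hv0, v.2, ?_, ?_⟩
  · have h1 := hpow P
    rw [hXsP, hg'P] at h1
    have h2 : (v : Y →ₗ[K] W) = κ ^ P • (v : Y →ₗ[K] W) := by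
      rw [← h1]; ext y; simp
    have h3 : (κ ^ P - 1) • (v : Y →ₗ[K] W) = 0 := by
      rw [sub_smul, one_smul, ← h2, sub_self]
    rcases smul_eq_zero.mp h3 with h | h
    · exact sub_eq_zero.mp h
    · exact absurd h hv0
  · have h1 := congrArg (fun t : Y →ₗ[K] W => t ∘ₗ g) hTv
    simp only [LinearMap.smul_comp] at h1
    rw [← h1]
    ext y
    simp only [LinearMap.comp_apply, hg'g_ap]

end Cfsg.Agent.Lib.Lead
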