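import Mathlib

set_option autoImplicit false

namespace Cfsg.Agent.Lib.Lead

/-- S3793-P2 (Frobenius averaging), statement as posted by helper3. -/
theorem fg_frob_triv {K : Type*} [Field K] {Q : Type*} [Group Q] [Finite Q]
    {W : Type*} [AddCommGroup W] [Module K W]
    (ρ : Q →* Module.End K W) (hρ : Function.Injective ρ) (σ : MulAut Q) (X : Module.End K W)
    (N : ℕ) (hN : 0 < N) (hX : ∀ h, X * ρ h = ρ (σ h) * X)
    (hsum : ∑ i ∈ Finset.range N, X ^ i = 0)
    (hfree : ∀ i, 0 < i → i < N → ∀ x, (σ ^ i) x = x → x = 1)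
    (hQK : (Nat.card Q : K) ≠ 0) : ∀ x : Q, x = 1 := by
  classical
  letI : Fintype Q := Fintype.ofFinite Q
  have hXi : ∀ (i : ℕ) (h : Q), X ^ i * ρ h = ρ ((σ ^ i) h) * X ^ i := by
    intro i
    induction i with
    | zero => intro h; simp
    | succ i ih =>
      intro h
      rw [pow_succ, mul_assoc, hX, ← mul_assoc, ih, mul_assoc, pow_succ σ i, MulAut.mul_apply]
  have h2 : ∀ h : Q, ∑ i ∈ Finset.range N, ρ (h⁻¹ * (σ ^ i) h) * X ^ i = 0 := by
    intro h
    have key : ∀ i ∈ Finset.range N, ρ (h⁻¹ * (σ ^ i) h) * X ^ i = ρ h⁻¹ * (X ^ i * ρ h) := by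
      intro i _
      rw [map_mul, mul_assoc, hXi]
    rw [Finset.sum_congr rfl key, ← Finset.mul_sum, ← Finset.sum_mul, hsum, zero_mul, mul_zero]
  set E : Module.End K W := ∑ x : Q, ρ x with hE
  have h3 : ∀ i, 0 < i → i < N → ∑ h : Q, ρ (h⁻¹ * (σ ^ i) h) = E := by
    intro i hi hiN
    have hinj : Function.Injective (fun h : Q => h⁻¹ * (σ ^ i) h) := by
      intro h k hhk
      simp only at hhk
      have h1 : (σ ^ i) k = k * (h⁻¹ * (σ ^ i) h) := by rw [hhk]; group
      have hfix : (σ ^ i) (k * h⁻¹) = k * h⁻¹ := by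
        rw [map_mul, map_inv, h1]; group
      have := hfree i hi hiN _ hfix
      exact (mul_inv_eq_one.mp this).symm
    have hbij : Function.Bijective (fun h : Q => h⁻¹ * (σ ^ i) h) :=
      Finite.injective_iff_bijective.mp hinj
    exact Fintype.sum_bijective _ hbij _ _ (fun _ => rfl)
  have h4 : ∑ h : Q, ∑ i ∈ Finset.range N, ρ (h⁻¹ * (σ ^ i) h) * X ^ i = 0 :=
    Finset.sum_eq_zero (fun h _ => h2 h)
  rw [Finset.sum_comm] at h4
  obtain ⟨M, rfl⟩ : ∃ M, N = M + 1 := ⟨N - 1, by omega⟩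
  rw [Finset.sum_range_succ'] at h4 hsum
  have h5 : ∀ i ∈ Finset.range M,
      ∑ h : Q, ρ (h⁻¹ * (σ ^ (i + 1)) h) * X ^ (i + 1) = E * X ^ (i + 1) := by
    intro i hi
    rw [← Finset.sum_mul, h3 (i + 1) (Nat.succ_pos i) (by simpa using Finset.mem_range.mp hi)]
  rw [Finset.sum_congr rfl h5, ← Finset.mul_sum] at h4
  have h6 : ∑ i ∈ Finset.range M, X ^ (i + 1) = -1 := by
    have := hsum
    simp only [pow_zero] at this
    exact eq_neg_of_add_eq_zero_left this
  rw [h6] at h4
  have h7 : E = (Fintype.card Q : K) • (1 : Module.End K W) := by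
    simp only [pow_zero, MulAut.one_apply, inv_mul_cancel, map_one, mul_one, Finset.sum_const,
      Finset.card_univ, mul_neg] at h4
    have h8 : E = Fintype.card Q • (1 : Module.End K W) := by
      have := h4
      rw [neg_add_eq_zero] at this
      exact this
    rw [h8, Nat.cast_smul_eq_nsmul]
  intro x
  have h9 : ρ x * E = E := by
    rw [hE, Finset.mul_sum]
    exact Fintype.sum_bijective (fun y => x * y) (Group.mulLeft_bijective x) _ _
      (fun y => (map_mul ρ x y).symm)
  rw [h7, mul_smul_comm, mul_one] at h9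
  have hc : (Fintype.card Q : K) ≠ 0 := by
    rwa [Nat.card_eq_fintype_card] at hQK
  have h10 : ρ x = 1 := smul_right_injective _ hc h9
  exact hρ (by rw [h10, map_one])

end Cfsg.Agent.Lib.Lead
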